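import Cfsg.Agent.Base
import Cfsg.Prelude.Def_CaseTheorems
import Cfsg.Prelude.Def_TwoFusion
import Cfsg.Prelude.Def_Transfer
import Cfsg.Prelude.Def_Sporadic
import Cfsg.Prelude.Def_Involutions

/-! Spec of the tower OC (groups with small element orders): see blueprints/OC.md. -/

set_option autoImplicit false

namespace H74.OC

open Cfsg Subgroup

universe u

/-- Every element has order at most `n`. -/
def Sp (n : ℕ) (G : Type u) [Group G] : Prop := ∀ g : G, orderOf g ≤ n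

abbrev A5 : Type := alternatingGroup (Fin 5)
abbrev A6 : Type := alternatingGroup (Fin 6)

def Kn (L : Type u) [Group L] : Prop := Nonempty (L ≃* A5) ∨ Nonempty (L ≃* A6)

/-- `L` contains a copy of the alternating group of degree 4. -/
def HasA4 (L : Type u) [Group L] : Prop :=
  ∃ a b y : L, a ≠ 1 ∧ a * a = 1 ∧ a * b = b * a ∧ y ^ 3 = 1 ∧ y * a * y⁻¹ = b ∧ y * b * y⁻¹ = a * b

/-- No nontrivial solvable normal subgroup. -/
def NoRad (H : Type u) [Group H] : Prop :=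
  ∀ N : Subgroup H, N.Normal → Group.IsSolvable N → N = ⊥

/-- The local data at `Q` when `N(Q)/Q` is `A5` and elements of order 5 are fixed point free on `Q`. -/
structure Loc {G : Type u} [Group G] (Q : Subgroup G) (m : ℕ) : Prop where
  el : IsElementaryAbelian 2 Q
  card : Nat.card Q = m ^ 2
  two : ∀ B : Subgroup G, IsPGroup 2 B → B ≤ normalizer (Q : Set G) →
    Nat.card B ≤ 4 * Nat.card (B ⊓ Q : Subgroup G)
  cen : ∀ t ∈ normalizer (Q : Set G), t ∉ Q → IsPGroup 2 (zpowers t) →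
    Nat.card (Q ⊓ centralizer ({t} : Set G) : Subgroup G) = m
  syl : ∃ T : Subgroup G, IsPGroup 2 T ∧ Q ≤ T ∧ T ≤ normalizer (Q : Set G) ∧ Nat.card T = 4 * m ^ 2

def JobALM : Prop := ∀ (H : Type u) [Group H] [Finite H] [Nontrivial H], Sp 8 H → NoRad H →
  ∃ N : Subgroup H, N.Normal ∧ IsSimpleGroup N ∧ ¬ IsMulCommutative N ∧ centralizer (N : Set H) = ⊥

def JobRAD : Prop := JobALM.{u} → ∀ n ≤ 8, ∀ (H : Type u) [Group H] [Finite H], Sp n H →
  ¬ Group.IsSolvable H →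
  (∀ (L : Type u) [Group L] [Finite L] [IsSimpleGroup L], ¬ IsMulCommutative L → Sp n L →
    Nat.card L ≤ Nat.card H → HasA4 L) →
  ∀ Q : Subgroup H, ∀ [Q.Normal], IsPGroup 2 Q →
    (∀ R : Subgroup H, R.Normal → IsPGroup 2 R → R ≤ Q) → NoRad (H ⧸ Q)

def JobAUT5 : Prop := ∀ (H : Type u) [Group H] [Finite H] (N : Subgroup H), N.Normal →
  Nonempty (N ≃* A5) → centralizer (N : Set H) = ⊥ → N = ⊤ ∨ Nonempty (H ≃* Equiv.Perm (Fin 5))

def JobAUT6 : Prop := ∀ (H : Type u) [Group H] [Finite H] (N : Subgroup H), Sp 8 H → N.Normal →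
  Nonempty (N ≃* A6) → centralizer (N : Set H) = ⊥ → (∃ w : H, orderOf w = 6) →
  Nonempty (H ≃* Equiv.Perm (Fin 6))

def JobMOD : Prop := ∀ (H : Type u) [Group H] [Finite H] (Q : Subgroup H) (σ t : H), Sp 6 H →
  Q.Normal → IsPGroup 2 Q → orderOf σ = 5 → t * σ * t⁻¹ * σ ∈ Q → t * t ∈ Q →
  IsElementaryAbelian 2 Q ∧
    Nat.card (Q ⊓ centralizer ({t} : Set H) : Subgroup H) ^ 2 = Nat.card Q ∧
    (Q ≠ ⊥ → ∀ y : H, y * y * t⁻¹ ∉ Q)

def JobNG : Prop := ∀ (G : Type u) [Group G] [Finite G] [IsSimpleGroup G], ¬ IsMulCommutative G →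
  Sp 6 G → IsNGroup G → Kn G

def JobLIST : Prop := ∀ (G : Type u) [Group G] [Finite G] [IsSimpleGroup G], ¬ IsMulCommutative G →
  Sp 6 G → 64 ∣ Nat.card G →
  (SectionalPRankLE 2 4 G ∨ (2 ^ 7 ∣ Nat.card G ∧ ¬ 2 ^ 8 ∣ Nat.card G) ∨
    (∃ H : Subgroup G, IsStronglyEmbedded H) ∨ IsJ2 G ∨ IsJ3 G) → False

def JobCORE : Prop := ∀ (G : Type u) [Group G] [Finite G] (Q : Subgroup G) (m : ℕ), Sp 8 G →
  IsCharacteristicTwoType G → Loc Q m → 16 ≤ m →
  ∃ S : Sylow 2 G, IsStronglyClosed Q (S : Subgroup G) ∧ ¬ IsMulCommutative (S : Subgroup G)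

def JobSMALL : Prop := ∀ (G : Type u) [Group G] [Finite G] (Q : Subgroup G), Loc Q 4 →
  ∃ S : Sylow 2 G, (Nat.card S = 64 ∧ SectionalPRankLE 2 4 (S : Subgroup G)) ∨ Nat.card S = 128

/-- The set of element orders is exactly `{1, ..., 6}`. -/
def Ex6 (G : Type u) [Group G] : Prop := Set.range (orderOf : G → ℕ) = {k : ℕ | 1 ≤ k ∧ k ≤ 6}

def JobSOLa : Prop := ∀ (G : Type u) [Group G] [Finite G] (V : Subgroup G), Ex6 G → V.Normal →
  IsPGroup 5 V → V ≠ ⊥ →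
  ∃ (N : Subgroup G) (_ : N.Normal), IsElementaryAbelian 5 N ∧
    (Nonempty (G ⧸ N ≃* QuaternionGroup 3) ∨
      Nonempty (G ⧸ N ≃* Matrix.SpecialLinearGroup (Fin 2) (ZMod 3)))

def JobSOLb : Prop := ∀ (G : Type u) [Group G] [Finite G], Ex6 G → Group.IsSolvable G →
  ∃ V : Subgroup G, V.Normal ∧ IsPGroup 5 V ∧ V ≠ ⊥

section
variable {G : Type u} [Group G] {n : ℕ}

theorem Sp.mono {k : ℕ} (h : Sp n G) (hk : n ≤ k) : Sp k G := fun g => (h g).trans hk

theorem Sp.of_surj [Finite G] {K : Type*} [Group K] (h : Sp n G) (f : G →* K)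
    (hf : Function.Surjective f) : ∀ k : K, orderOf k ≤ n := fun k => by
  obtain ⟨g, rfl⟩ := hf k
  exact (Nat.le_of_dvd (orderOf_pos g) (orderOf_map_dvd f g)).trans (h g)

theorem Sp.of_inj {K : Type*} [Group K] (h : Sp n G) (f : K →* G)
    (hf : Function.Injective f) : ∀ k : K, orderOf k ≤ n := fun k => by
  rw [← orderOf_injective f hf k]; exact h _

theorem Sp.quot [Finite G] (h : Sp n G) (N : Subgroup G) [N.Normal] : Sp n (G ⧸ N) :=
  h.of_surj (QuotientGroup.mk' N) (QuotientGroup.mk'_surjective N)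

theorem Sp.sub (h : Sp n G) (K : Subgroup G) : Sp n K := h.of_inj K.subtype K.subtype_injective

/-- Commuting elements of coprime orders. -/
theorem Sp.mul_le (h : Sp n G) {a b : G} (hc : a * b = b * a)
    (ho : (orderOf a).Coprime (orderOf b)) : orderOf a * orderOf b ≤ n := by
  rw [← Commute.orderOf_mul_eq_mul_orderOf_of_coprime hc ho]; exact h _

theorem Sp.prime_le [Finite G] (h : Sp n G) {p : ℕ} (hp : p.Prime) (hd : p ∣ Nat.card G) : p ≤ n := by
  haveI := Fact.mk hp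
  obtain ⟨x, hx⟩ := exists_prime_orderOf_dvd_card' p hd
  exact hx ▸ h x

theorem Ex6.sp (h : Ex6 G) : Sp 6 G := fun g =>
  (show orderOf g ∈ {k : ℕ | 1 ≤ k ∧ k ≤ 6} from h ▸ ⟨g, rfl⟩).2

theorem Ex6.ex (h : Ex6 G) {k : ℕ} (h1 : 1 ≤ k) (h2 : k ≤ 6) : ∃ g : G, orderOf g = k :=
  show k ∈ Set.range (orderOf : G → ℕ) from h ▸ ⟨h1, h2⟩

end

end H74.OC
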