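import Cfsg.Agent.H74.E8X
import Cfsg.Agent.H74.ThB

/-! Words in the root elements for the generators of the Thompson group: kernel checks. -/

set_option autoImplicit false
set_option maxRecDepth 1000000
set_option Elab.async false

namespace H74.E8

open Cfsg.Lie H73 H74.ThT

theorem c0 : Nat.beq (run [189,217,218,272,274,299,302,465,271,14,177,178,180,207,262,289,290,292,463,283,197,2,164,234,241,307,474,166,173,244,308,314,476,318,160,21,168,311,317,458,460,479,252,226,26,453,26,174,304,174,304] (get2 492032 CB 0)) PT.one = true := by decide +kernel
theorem c2 : Nat.beq (run [230,263,472,7,216,249,469,476,2,11,206,234,258,276,202,220,244,272,281,198,281,266,213,266,158,320,158,320] (get2 492032 CB 2)) PT.one = true := by decide +kernel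
theorem c4 : Nat.beq (run [206,225,244,273,281,294,309,464,468,472,476,6,157,171,174,176,184,199,235,236,246,265,27,230,263,313,166,217,249,452,454,463,474,203,282,291,221,223,276,306,161,181,269,319,212,267,285,194,285,320,159,320,206,272,206,272] (get2 492032 CB 4)) PT.one = true := by decide +kernel
theorem c6 : Nat.beq (run [0,478,0,478,26,452,26,452] (get2 492032 CB 6)) PT.one = true := by decide +kernel
theorem c7 : Nat.beq (run [38,70,76,95,102,109,123,344,367,372,390,399,405,425,433,442,243,47,60,68,80,93,106,113,120,127,200,222,240,247,265,289,307,320,351,356,364,377,385,388,441,474,237,43,53,59,162,193,226,261,336,339,349,354,368,375,453,465,328,9,17,21,84,141,149,153,207,218,252,286,316,318,426,436,446,450,150,250,268,280,310,346,381,406,412,434,448,461,469,478,7,10,19,31,45,66,72,133,169,198,211,229,0,340,208,414,41,65,175,216,271,50,96,204,274,16,462,16,462] (get2 492032 CB 7)) PT.one = true := by decide +kernel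
theorem c8 : Nat.beq (run [304,174,197,283,161,319,27,453,209,270,209,253,226,253,479,0,479,237,242,237] (get2 492032 CB 8)) PT.one = true := by decide +kernel
theorem c9 : Nat.beq (run [161,175,226,236,197,208,452,479,10,469,10,198,281,198,4,474,4,474,194,284,194,284] (get2 492032 CB 9)) PT.one = true := by decide +kernel
theorem c10 : Nat.beq (run [161,197,175,452,258,221,258,7,472,7,2,476,2,476,218,260,218,260] (get2 492032 CB 10)) PT.one = true := by decide +kernel

end H74.E8
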