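import Cfsg.Agent.H74.E8C
import Cfsg.Agent.H88.ThM

/-! The Thompson group embeds in the Chevalley group of type E8 over the field with three
elements. -/

set_option autoImplicit false
set_option maxRecDepth 1000000
set_option Elab.async false

namespace H74.E8

open Cfsg.Lie H73 H74.ThT

/-- the numbering of the basis -/
def eqv : chevE8.Idx ≃ Fin 248 := finSumFinEquiv (m := 8) (n := 240)

theorem eqv_val (I : chevE8.Idx) : (eqv I : ℕ) = num chevE8 I := by
  rcases I with i | s <;> rfl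

theorem dm_eq (A : ℕ) (I J : chevE8.Idx) : dm A I J = PT.dec A (eqv I) (eqv J) := by
  rw [dm, ← eqv_val, ← eqv_val]
  rfl

theorem mem_one : Mem PT.one :=
  ⟨1, one_mem _, Matrix.ext fun I J => by
    rw [dm_eq, show PT.dec PT.one = 1 from decB_one PTok, Units.val_one, Matrix.one_apply]
    exact (if_congr eqv.injective.eq_iff rfl rfl).symm.trans Matrix.one_apply.symm⟩

theorem mem_of {w : List ℕ} {A : ℕ} (h : Nat.beq (run w A) PT.one = true) : Mem A :=
  Mem.of_run w (Nat.eq_of_beq_eq_true h ▸ mem_one)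

theorem emb_of {G F ι κ : Type} [Group G] [Field F] [Fintype ι] [DecidableEq ι] [Fintype κ]
    [DecidableEq κ] (e : ι ≃ κ) (Γ : Subgroup (GL ι F)) (ρ : G →* GL κ F)
    (h1 : Function.Injective ρ) {v : ℕ → G} {S : List ℕ} (ht : H71.gen v S = ⊤)
    (h3 : ∀ l ∈ S, ∃ g ∈ Γ, ∀ I J, g.val I J = (ρ (v l)).val (e I) (e J)) :
    ∃ f : G →* Γ, Function.Injective f := by
  let Φ : Matrix κ κ F ≃* Matrix ι ι F := (Matrix.reindexAlgEquiv F F e.symm).toMulEquiv
  let f := (Units.mapEquiv Φ).toMonoidHom.comp ρ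
  have h4 : H71.gen v S ≤ Γ.comap f := H71.gen_le fun l hl => by
    obtain ⟨g, hg, e⟩ := h3 l hl
    have : f (v l) = g := Units.ext (Matrix.ext e).symm
    exact Subgroup.mem_comap.2 (this ▸ hg)
  rw [ht] at h4
  exact ⟨f.codRestrict _ fun g => h4 trivial, fun a b h =>
    h1 ((Units.mapEquiv Φ).injective (congrArg Subtype.val h))⟩

theorem mem_all : ∀ l ∈ [0,2,4,6,7,8,9,10], Mem (get2 492032 CB l) := by
  simp only [List.forall_mem_cons, List.not_mem_nil]
  exact ⟨mem_of c0, mem_of c2, mem_of c4, mem_of c6, mem_of c7, mem_of c8, mem_of c9, mem_of c10,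
    fun _ h => h.elim⟩

theorem rep_val : ∀ l ∈ LB, PT.dec (get2 492032 CB l) = (ρ (Ths.val l)).val := fun l hl => by
  rw [hρ l hl]
  exact hπ l hl

theorem exists_emb : ∃ f : Cfsg.Spor.Th →* chevE8.group (ZMod 3), Function.Injective f :=
  emb_of eqv _ ρ H88.ThT.ρ_inj Ths.top fun l hl =>
    (mem_all l hl).imp fun _ hg => ⟨hg.1, fun I J => (congrFun (congrFun hg.2 I) J).trans
      ((dm_eq _ I J).trans (congrFun (congrFun (rep_val l
        ((by decide : ∀ l ∈ [0,2,4,6,7,8,9,10], l ∈ LB) l hl)) _) _))⟩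

end H74.E8
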