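import Cfsg.Agent.H74.MatB
import Cfsg.Prelude.Def_ChevE8

/-! Membership of packed matrices in a Chevalley group: left multiplication by root elements. -/

set_option autoImplicit false
set_option linter.unusedSimpArgs false

namespace H74.E8

open Cfsg.Lie Cfsg.Lie.ChevalleyDatum H73 Finset

variable (D : ChevalleyDatum)

/-- the entries (row, column, coefficient, exponent) of `x_r(t) - 1`. -/
def ents (r : ℕ) : List (ℕ × ℕ × ℤ × ℕ) :=
  (List.range D.rank).map (fun i => (D.rank + r, i, -((D.cartanSR.getD i #[]).getD r 0), 1)) ++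
  ((List.range D.rank).map (fun i =>
      (i, D.rank + D.negIdx.getD r 0, (D.coroot.getD r #[]).getD i 0, 1)) ++
    ((D.rank + r, D.rank + D.negIdx.getD r 0, -1, 2) ::
      (D.chain.getD r #[]).toList.flatMap fun e => e.2.toList.zipIdx.map fun q =>
        (D.rank + q.1.1, D.rank + e.1, q.1.2, q.2 + 1)))

/-- the number of an index. -/
def num : D.Idx → ℕ := Sum.elim (fun i => i.val) (fun s => D.rank + s.val)

theorem sum_range_ite {F : Type*} [AddCommMonoid F] (n : ℕ) (f : ℕ → F) (p : ℕ → Prop)
    [DecidablePred p] (i : ℕ) (hi : i < n) (hp : ∀ j, p j → j = i) :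
    ((List.range n).map fun j => if p j then f j else 0).sum = if p i then f i else 0 := by
  change ∑ j ∈ range n, (if p j then f j else 0) = _
  rw [Finset.sum_eq_single i]
  · intro j _ hj
    rw [if_neg fun h => hj (hp j h)]
  · intro h
    exact absurd (Finset.mem_range.2 hi) h

theorem sum_zero' {α F : Type*} [AddCommMonoid F] (l : List α) (f : α → F) (p : α → Prop)
    [DecidablePred p] (hp : ∀ a ∈ l, ¬ p a) : (l.map fun a => if p a then f a else 0).sum = 0 :=
  List.sum_eq_zero fun x hx => by
    obtain ⟨a, ha, rfl⟩ := List.mem_map.1 hx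
    exact if_neg (hp a ha)

theorem sum_filter' {α F : Type*} [AddCommMonoid F] (l : List α) (f : α → F) (p : α → Prop)
    [DecidablePred p] :
    ((l.filter fun a => decide (p a)).map f).sum = (l.map fun a => if p a then f a else 0).sum := by
  induction l with
  | nil => rfl
  | cons a l ih => by_cases h : p a <;> simp [List.filter_cons, h, ih]

theorem sum_flatMap' {α β F : Type*} [AddCommMonoid F] (l : List α) (g : α → List β) (f : β → F) :
    ((l.flatMap g).map f).sum = (l.map fun a => ((g a).map f).sum).sum := by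
  induction l with
  | nil => rfl
  | cons a l ih => simp [List.flatMap_cons, ih]

/-- the entry of `x_r(t) - 1` at the numbers `a`, `b`. -/
def cf {F : Type*} [Field F] (r : ℕ) (t : F) (a b : ℕ) : F :=
  ((ents D r).map fun e => if e.1 = a ∧ e.2.1 = b then (e.2.2.1 : F) * t ^ e.2.2.2 else 0).sum

theorem xMat_eq (F : Type*) [Field F] (r : Fin D.nroots) (t : F)
    (h1 : D.negIdx.getD r 0 ≠ r)
    (h2 : ∀ e ∈ (D.chain.getD r #[]).toList, e.1 ≠ r ∧ e.1 ≠ D.negIdx.getD r 0) (I K : D.Idx) :
    D.xMat F r t I K = (if I = K then 1 else 0) + cf D r t (num D I) (num D K) := by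
  rcases K with i | s <;> rcases I with j | u <;> simp only [xMat, Matrix.of_apply, num,
    Sum.elim_inl, Sum.elim_inr] <;>
  simp only [cf, ents, List.map_append, List.map_cons, List.sum_append, List.sum_cons, List.map_map,
    Function.comp_def, sum_flatMap']
  · have := i.2
    have := j.2
    rw [sum_zero' _ _ _ (fun a _ => by omega), sum_zero' _ _ _ (fun a _ => by omega),
      if_neg (c := _ ∧ _) (by omega), List.sum_eq_zero (fun x hx => by
        obtain ⟨a, -, rfl⟩ := List.mem_map.1 hx
        exact sum_zero' _ _ _ (fun a _ => by omega))]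
    simp
  · have := i.2
    rw [sum_range_ite _ _ _ i i.2 (fun a h => h.2), sum_zero' _ _ _ (fun a _ => by omega),
      if_neg (c := _ ∧ D.rank + D.negIdx.getD r 0 = _) (by omega), List.sum_eq_zero (fun x hx => by
        obtain ⟨a, -, rfl⟩ := List.mem_map.1 hx
        exact sum_zero' _ _ _ (fun a _ => by omega))]
    by_cases h : u = r
    · simp [h]
    · simp [h, Fin.val_inj, Ne.symm h]
  · have := j.2
    rw [sum_zero' _ _ _ (fun a _ => by omega), sum_range_ite _ _ _ j j.2 (fun a h => h.1),
      if_neg (c := D.rank + r = _ ∧ _) (by omega), List.sum_eq_zero (fun x hx => by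
        obtain ⟨a, -, rfl⟩ := List.mem_map.1 hx
        exact sum_zero' _ _ _ (fun a _ => by omega))]
    by_cases h : s = r
    · rw [if_pos h, if_neg (c := _ ∧ _) (by rw [h]; omega)]; simp
    · by_cases h' : s.val = D.negIdx.getD r 0
      · rw [if_neg h, if_pos h', if_pos (c := _ ∧ _) ⟨rfl, by omega⟩]; simp
      · rw [if_neg h, if_neg h', if_neg (c := _ ∧ _) (by omega)]; simp
  · rw [sum_zero' _ _ _ (fun a ha => by have := List.mem_range.1 ha; omega),
      sum_zero' _ _ _ (fun a ha => by have := List.mem_range.1 ha; omega)]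
    by_cases h : s = r
    · rw [if_pos h, if_neg (c := _ ∧ _) (by rw [h]; omega), List.sum_eq_zero (fun x hx => by
        obtain ⟨a, ha, rfl⟩ := List.mem_map.1 hx
        exact sum_zero' _ _ _ (fun b _ => by have := (h2 a ha).1; rw [h]; omega))]
      simp [h]
    · by_cases h' : s.val = D.negIdx.getD r 0
      · rw [if_neg h, if_pos h', List.sum_eq_zero (fun x hx => by
          obtain ⟨a, ha, rfl⟩ := List.mem_map.1 hx
          exact sum_zero' _ _ _ (fun b _ => by have := (h2 a ha).2; omega))]
        by_cases h3 : u = s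
        · have : ¬ (r : ℕ) = u := fun e => h (h3.symm.trans (Fin.ext e).symm)
          rw [if_pos h3, if_neg (c := _ ∧ _) (by omega)]
          simp [h3]
        · rw [if_neg h3]
          by_cases h4 : u = r
          · rw [if_pos h4, if_pos (c := _ ∧ _) ⟨by rw [h4], by omega⟩]
            simp [h3]
          · have : ¬ (r : ℕ) = u := fun e => h4 (Fin.ext e).symm
            rw [if_neg h4, if_neg (c := _ ∧ _) (by omega)]
            simp [h3]
      · rw [if_neg h, if_neg h', if_neg (c := _ ∧ _) (by omega), chainCoeff, sum_flatMap',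
          sum_filter' _ _ (fun e : ℕ × Array (ℕ × ℤ) => e.1 = s.val)]
        simp only [Sum.inr.injEq, zero_add, List.map_map, Function.comp_def]
        congr 2
        refine List.map_congr_left fun e _ => ?_
        rw [sum_filter' _ _ (fun q : (ℕ × ℤ) × ℕ => q.1.1 = u.val)]
        by_cases h5 : e.1 = s.val
        · simp [h5]
        · rw [if_neg h5, sum_zero' _ _ _ (fun b _ => by omega)]

theorem num_inj {I K : D.Idx} (h : num D I = num D K) : I = K := by
  rcases K with i | s <;> rcases I with j | u <;> simp only [num, Sum.elim_inl, Sum.elim_inr] at h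
  · rw [Fin.ext h]
  · have := i.2; omega
  · have := j.2; omega
  · rw [Fin.ext (show u.val = s.val by omega)]

theorem exists_num {a : ℕ} (h : a < D.rank + D.nroots) : ∃ K, num D K = a := by
  by_cases h1 : a < D.rank
  · exact ⟨Sum.inl ⟨a, h1⟩, rfl⟩
  · exact ⟨Sum.inr ⟨a - D.rank, by omega⟩, by simp only [num, Sum.elim_inr]; omega⟩

theorem xMat_sum (F : Type*) [Field F] (r : Fin D.nroots) (t : F)
    (h1 : D.negIdx.getD r 0 ≠ r)
    (h2 : ∀ e ∈ (D.chain.getD r #[]).toList, e.1 ≠ r ∧ e.1 ≠ D.negIdx.getD r 0)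
    (h3 : ∀ e ∈ ents D r, e.2.1 < D.rank + D.nroots) (f : ℕ → F) (I : D.Idx) :
    ∑ K, D.xMat F r t I K * f (num D K) = f (num D I) + ((ents D r).map fun e =>
      if e.1 = num D I then (e.2.2.1 : F) * t ^ e.2.2.2 * f e.2.1 else 0).sum := by
  simp only [xMat_eq D F r t h1 h2, add_mul, Finset.sum_add_distrib, ite_mul, one_mul, zero_mul,
    Finset.sum_ite_eq, Finset.mem_univ, if_true, cf]
  congr 1
  generalize ents D r = E at h3
  induction E with
  | nil => simp
  | cons e E ih =>
    obtain ⟨K, hK⟩ := exists_num D (h3 e List.mem_cons_self)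
    simp only [List.map_cons, List.sum_cons, add_mul, Finset.sum_add_distrib]
    rw [ih fun e he => h3 e (List.mem_cons_of_mem _ he), Finset.sum_eq_single K]
    · simp [← hK]
    · intro K' _ h
      rw [if_neg fun h' => h (num_inj D (h'.2.symm.trans hK.symm)), zero_mul]
    · simp

/-- add the multiples of the rows of `M` prescribed by the list `E` of (row, column, factor). -/
noncomputable def accT (M : ℕ) (E : List (ℕ × ℕ × ℕ)) : ℕ → ℕ :=
  List.rec (motive := fun _ => ℕ → ℕ) (fun A => A) (fun e _ ih A => frc (Nat.add A (Nat.shiftLeft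
    (Nat.mul e.2.2 (Nat.land (Nat.shiftRight M (Nat.mul 1984 e.2.1)) (msk 8 2 248)))
    (Nat.mul 1984 e.1))) ih) E

noncomputable def red (X : ℕ) : ℕ := redP 3 8 61504 11 5 [4, 4] X

/-- entry number `q`. -/
def en (A q : ℕ) : ℕ := A / 2 ^ (8 * q) % 2 ^ 2

theorem en_le (A q : ℕ) : en A q ≤ 3 := Nat.le_of_lt_succ (Nat.mod_lt _ (by norm_num))

/-- the contribution of the list to the entry number `q`. -/
def con (M : ℕ) (E : List (ℕ × ℕ × ℕ)) (q : ℕ) : ℕ :=
  (E.map fun e => if e.1 = q / 248 then e.2.2 * en M (248 * e.2.1 + q % 248) else 0).sum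

theorem accT_pk (M : ℕ) (E : List (ℕ × ℕ × ℕ)) (hE : ∀ e ∈ E, e.1 < 248) (f : ℕ → ℕ) :
    accT M E (pk 8 f (248 * 248)) = pk 8 (fun q => f q + con M E q) (248 * 248) := by
  induction E generalizing f with
  | nil => simp [accT, con]
  | cons e E ih =>
    have h1 : e.2.2 * 2 ^ (1984 * e.1) = pk (8 * 248) (fun i => if e.1 = i then e.2.2 else 0) 248 := by
      rw [pk, Finset.sum_eq_single e.1]
      · simp
      · intro j _ hj
        rw [if_neg hj.symm, zero_mul]
      · intro h
        exact absurd (Finset.mem_range.2 (hE e List.mem_cons_self)) h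
    have h2 : accT M (e :: E) (pk 8 f (248 * 248)) = accT M E (pk 8 f (248 * 248) +
        (e.2.2 * ((M >>> (1984 * e.2.1)) &&& msk 8 2 248)) <<< (1984 * e.1)) := frc_eq _ _
    rw [h2, Nat.shiftLeft_eq, mul_right_comm, h1, msk_eq (by norm_num), land_pk (by norm_num),
      pk_mul, pk_add, ih fun e he => hE e (List.mem_cons_of_mem _ he)]
    refine pk_congr fun q _ => ?_
    simp only [con, List.map_cons, List.sum_cons, add_assoc, ite_mul, zero_mul, en,
      Nat.shiftRight_eq_div_pow, Nat.div_div_eq_div_mul, ← pow_add]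
    congr 6
    ring

theorem con_le (M : ℕ) (E : List (ℕ × ℕ × ℕ)) (hE : ∀ e ∈ E, e.2.2 < 3) (q : ℕ) :
    con M E q ≤ E.length * 6 := by
  induction E with
  | nil => simp [con]
  | cons e E ih =>
    have h1 := ih fun e he => hE e (List.mem_cons_of_mem _ he)
    have h2 := hE e List.mem_cons_self
    have h3 := en_le M (248 * e.2.1 + q % 248)
    simp only [con, List.map_cons, List.sum_cons, List.length_cons] at h1 ⊢
    split_ifs
    · nlinarith
    · omega

theorem red_ok : allB 256 (fun x => red1 3 8 11 5 [4, 4] x (Nat.mod x 3)) = true := by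
  decide +kernel

theorem red_acc (M : ℕ) (E : List (ℕ × ℕ × ℕ)) (hE : ∀ e ∈ E, e.1 < 248 ∧ e.2.2 < 3)
    (hl : E.length ≤ 42) {f : ℕ → ℕ} (hf : ∀ q, f q ≤ 3) :
    red (accT M E (pk 8 f (248 * 248))) = pk 8 (fun q => (f q + con M E q) % 3) (248 * 248) := by
  rw [accT_pk M E fun e he => (hE e he).1]
  refine redP_pk (by norm_num) (by norm_num) fun q _ => allB_spec red_ok _ ?_
  have := con_le M E (fun e he => (hE e he).2) q
  have := hf q
  omega

/-- left multiplication by `1 + E`. -/
noncomputable def step (E : List (ℕ × ℕ × ℕ)) (M : ℕ) : ℕ :=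
  frc (red (accT M (E.take 37) (Nat.land M (msk 8 2 61504)))) fun A => red (accT M (E.drop 37) A)

theorem en_step (M : ℕ) (E : List (ℕ × ℕ × ℕ)) (hE : ∀ e ∈ E, e.1 < 248 ∧ e.2.2 < 3)
    (hl : E.length ≤ 79) {q : ℕ} (hq : q < 248 * 248) :
    ((en (step E M) q : ℕ) : ZMod 3) = en M q + con M E q := by
  have h0 : Nat.land M (msk 8 2 61504) = pk 8 (en M) (248 * 248) := by
    rw [msk_eq (by norm_num)]
    exact land_pk (by norm_num) _ _
  have h1 : con M E q = con M (E.take 37) q + con M (E.drop 37) q := by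
    rw [con, con, con, ← List.sum_append, ← List.map_append, List.take_append_drop]
  rw [step, frc_eq, h0, red_acc M _ (fun e he => hE e (List.mem_of_mem_take he))
    (by rw [List.length_take]; omega) (en_le M), red_acc M _
    (fun e he => hE e (List.mem_of_mem_drop he)) (by rw [List.length_drop]; omega)
    (fun q => by omega), en, ← Nat.mod_mod_of_dvd _ (pow_dvd_pow 2 (by norm_num : 2 ≤ 8)),
    pk_field (fun i _ => by omega) hq, Nat.mod_eq_of_lt (by omega), ZMod.natCast_mod, Nat.cast_add,
    ZMod.natCast_mod, h1]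
  push_cast
  ring

/-- the entries of `x_r(t) - 1` modulo three. -/
noncomputable def ents3 (r t : ℕ) : List (ℕ × ℕ × ℕ) := (ents chevE8 r).map fun e =>
  (e.1, e.2.1, Int.toNat (Int.emod (Int.mul e.2.2.1 (Int.ofNat (Nat.pow t e.2.2.2))) 3))

/-- the matrix of a code, on the basis of the Lie algebra. -/
def dm (A : ℕ) : Matrix chevE8.Idx chevE8.Idx (ZMod 3) :=
  fun I K => (en A (248 * num chevE8 I + num chevE8 K) : ℕ)

theorem num_lt (I : chevE8.Idx) : num chevE8 I < 248 := by
  rcases I with i | s
  · exact i.2.trans (by decide)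
  · exact Nat.add_lt_add_left s.2 8

/-- the facts on the tables which are used. -/
def tabOK (r : ℕ) : Bool :=
  decide (chevE8.negIdx.getD r 0 ≠ r) &&
  (chevE8.chain.getD r #[]).toList.all (fun e => decide (e.1 ≠ r) &&
    decide (e.1 ≠ chevE8.negIdx.getD r 0)) &&
  (ents chevE8 r).all (fun e => decide (e.1 < 248) && decide (e.2.1 < 248)) &&
  decide ((ents chevE8 r).length ≤ 79)

theorem tab_ok : allB 240 tabOK = true := by decide +kernel

instance fact3 : Fact (Nat.Prime 3) := ⟨Nat.prime_three⟩

theorem dm_step (r : Fin chevE8.nroots) (t M : ℕ) :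
    dm (step (ents3 r t) M) = chevE8.xMat (ZMod 3) r t * dm M := by
  have h := allB_spec tab_ok r r.2
  simp only [tabOK, Bool.and_eq_true, decide_eq_true_eq, List.all_eq_true] at h
  obtain ⟨⟨⟨h1, h2⟩, h3⟩, h4⟩ := h
  ext I J
  have hI := num_lt I
  have hJ := num_lt J
  rw [Matrix.mul_apply]
  refine Eq.trans ?_ (xMat_sum chevE8 (ZMod 3) r t h1 h2 (fun e he => (h3 e he).2)
    (fun a => (en M (248 * a + num chevE8 J) : ℕ)) I).symm
  rw [dm, en_step M _ (fun e he => by
    obtain ⟨e', he', rfl⟩ := List.mem_map.1 he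
    refine ⟨(h3 e' he').1, ?_⟩
    change Int.toNat (_ % 3) < 3
    omega) (by rwa [ents3, List.length_map]) (by omega)]
  refine congrArg (_ + ·) ?_
  rw [con, ents3, List.map_map, Nat.cast_list_sum, List.map_map,
    show (248 * num chevE8 I + num chevE8 J) / 248 = num chevE8 I by omega,
    show (248 * num chevE8 I + num chevE8 J) % 248 = num chevE8 J by omega]
  refine congrArg List.sum (List.map_congr_left fun e _ => ?_)
  simp only [Function.comp]
  split_ifs
  · rw [Nat.cast_mul]
    congr 1
    change ((Int.toNat ((e.2.2.1 * ((t ^ e.2.2.2 : ℕ) : ℤ)) % 3) : ℕ) : ZMod 3) = _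
    rw [← Int.cast_natCast, Int.toNat_of_nonneg (Int.emod_nonneg _ (by norm_num))]
    exact (ZMod.intCast_mod _ 3).trans (by push_cast; rfl)
  · rfl

/-- multiply on the left by the root elements coded in `w`, and compare with `B`. -/
noncomputable def run (w : List ℕ) : ℕ → ℕ :=
  List.rec (motive := fun _ => ℕ → ℕ) (fun M => M) (fun c _ ih M =>
    frc (step (ents3 (Nat.mod (Nat.div c 2) 240) (Nat.succ (Nat.mod c 2))) M) ih) w

/-- the matrix of the code belongs to the Chevalley group -/
def Mem (A : ℕ) : Prop := ∃ g ∈ chevE8.group (ZMod 3), (g : Matrix _ _ _) = dm A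

theorem Mem.of_run (w : List ℕ) {A : ℕ} (h : Mem (run w A)) : Mem A := by
  induction w generalizing A with
  | nil => exact h
  | cons c w ih =>
    have e : run (c :: w) A = run w (step (ents3 (c / 2 % 240) (c % 2 + 1)) A) := frc_eq _ _
    obtain ⟨g, hg, e1⟩ := ih (e ▸ h)
    rw [dm_step ⟨c / 2 % 240, Nat.mod_lt _ (by norm_num)⟩] at e1
    have h1 := (Matrix.isUnit_iff_isUnit_det _).1 g.isUnit
    rw [e1, Matrix.det_mul] at h1
    obtain ⟨x, hx⟩ := (Matrix.isUnit_iff_isUnit_det _).2 (isUnit_of_mul_isUnit_left h1)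
    refine ⟨x⁻¹ * g, mul_mem (inv_mem (Subgroup.subset_closure ⟨_, _, hx⟩)) hg, ?_⟩
    rw [Units.val_mul, e1, ← hx, Units.inv_mul_cancel_left]

end H74.E8
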