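import Cfsg.Agent.H74.O8Spec

/-! Job BIL of the tower O8: bilinear maps for the Frobenius group of order 21. -/

set_option autoImplicit false

namespace H74.O8

universe u

section
variable {W : Type u} [AddCommGroup W] {r : AddMonoid.End W}

theorem kill (hN : 1 + r + r ^ 2 + r ^ 3 + r ^ 4 + r ^ 5 + r ^ 6 = 0) {u : W} (h2 : u + u = 0)
    {A : AddMonoid.End W} (hA : A u = 0) {p : AddMonoid.End W} (a b c : AddMonoid.End W)
    (e : p = a * (1 + r + r ^ 2 + r ^ 3 + r ^ 4 + r ^ 5 + r ^ 6) + b * A + c * (1 + 1)) : p u = 0 := by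
  rw [e, hN]
  change (a * 0) u + b (A u) + c (u + u) = 0
  simp [hA, h2]

theorem rec3 {g : ℕ → W} {E : AddMonoid.End W} {k : ℕ} (hk : k < 3)
    (h : ∀ j, g (j + 3) = g (j + k) + g j) (h0 : E (g 0) = 0) (h1 : E (g 1) = 0) (h2 : E (g 2) = 0)
    (j : ℕ) : E (g j) = 0 := by
  induction j using Nat.strong_induction_on with | _ j ih => ?_
  match j with
  | 0 => exact h0
  | 1 => exact h1
  | 2 => exact h2
  | j + 3 => rw [h, map_add, ih _ (by omega), ih _ (by omega), add_zero]

end

namespace Act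

variable {U : Type u} [AddCommGroup U] {s x : AddMonoid.End U}

theorem two' (h : Act U s x) : (1 + 1 : AddMonoid.End U) = 0 := by ext v; exact h.two v

theorem s7 (h : Act U s x) : s ^ 7 = 1 := by
  have : s ^ 7 - 1 = (s - 1) * (1 + s + s ^ 2 + s ^ 3 + s ^ 4 + s ^ 5 + s ^ 6) := by noncomm_ring
  rwa [h.nrm, mul_zero, sub_eq_zero] at this

theorem xs (h : Act U s x) (k : ℕ) : x * s ^ k = s ^ (2 * k) * x := by
  induction k with
  | zero => simp
  | succ k ih => rw [pow_succ, ← mul_assoc, ih, mul_assoc, h.rel, ← mul_assoc, ← pow_add, mul_add]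

theorem term (h : Act U s x) (j k : ℕ) : s ^ j * (1 + x + x ^ 2) * s ^ k =
    s ^ ((j + k) % 7) + s ^ ((j + 2 * k) % 7) * x + s ^ ((j + 4 * k) % 7) * x ^ 2 := by
  rw [← pow_eq_pow_mod _ h.s7, ← pow_eq_pow_mod _ h.s7, ← pow_eq_pow_mod _ h.s7]
  have : x ^ 2 * s ^ k = s ^ (4 * k) * x ^ 2 := by
    rw [pow_two, mul_assoc, h.xs, ← mul_assoc, h.xs, mul_assoc, ← mul_assoc 2]; rfl
  simp only [mul_add, add_mul, mul_one, mul_assoc, h.xs, this, pow_add]

theorem dec (h : Act U s x) : ∑ j ∈ Finset.range 7, s ^ j * (1 + x + x ^ 2) * s ^ (7 - j) = 1 := by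
  simp only [Finset.sum_range_succ, Finset.sum_range_zero, h.term]
  norm_num
  have : ∀ N T : AddMonoid.End U, N = 0 → T = 0 → 1 = 1 + (1 + 1 + 1) * T + N * x + N * x ^ 2 := by
    rintro _ _ rfl rfl; simp
  refine Eq.trans ?_ (this _ _ h.nrm h.two').symm
  noncomm_ring

theorem ind (h : Act U s x) {P : U → Prop} (add : ∀ a b, P a → P b → P (a + b))
    (hc : ∀ j c, x c = c → P ((s ^ j) c)) (a : U) : P a := by
  have e : a = ∑ j ∈ Finset.range 7, (s ^ j) ((1 + x + x ^ 2 : AddMonoid.End U) ((s ^ (7 - j)) a)) := by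
    conv_lhs => rw [show a = (1 : AddMonoid.End U) a from rfl, ← h.dec]
    exact AddMonoidHom.finset_sum_apply _ _ _
  rw [e]
  refine Finset.sum_induction _ P add (by simpa using hc 0 0 (map_zero x)) fun j _ => hc _ _ ?_
  have : x * (1 + x + x ^ 2) = 1 + x + x ^ 2 := by
    rw [show x * (1 + x + x ^ 2) = x ^ 3 + x + x ^ 2 by noncomm_ring, h.x3]
  exact DFunLike.congr_fun this _

/-- Fixed vectors on which `s` satisfies a cubic. -/
structure Fx (s x : AddMonoid.End U) (k : ℕ) (c : U) : Prop where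
  fix : x c = c
  cub : ∀ j, (s ^ (j + 3)) c = (s ^ (j + k)) c + (s ^ j) c

theorem fx (h : Act U s x) {e p : AddMonoid.End U} {k : ℕ} (he : x * e = e * x)
    (hc : (s ^ 3 - s ^ k - 1) * e = p * (1 + s + s ^ 2 + s ^ 3 + s ^ 4 + s ^ 5 + s ^ 6) +
      (p * s ^ 3 - (s ^ k + 1) * e) * (1 + 1)) {c : U} (f : x c = c) : Fx s x k (e c) := by
  refine ⟨(DFunLike.congr_fun he c).trans (congrArg e f), fun j => ?_⟩
  rw [h.nrm, h.two', mul_zero, mul_zero, add_zero] at hc
  have : s ^ (j + 3) * e = s ^ (j + k) * e + s ^ j * e := by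
    rw [← sub_eq_zero, ← mul_zero (s ^ j), ← hc, pow_add, pow_add]; noncomm_ring
  exact DFunLike.congr_fun this c

theorem fxP (h : Act U s x) {c : U} (f : x c = c) : Fx s x 2 (eP s c) :=
  h.fx (p := s) (by
    have : s ^ 8 = s := by rw [pow_succ, h.s7, one_mul]
    simp only [eP, mul_add, add_mul, h.rel, h.xs, Nat.reduceMul, this]; abel)
    (by simp only [eP]; noncomm_ring) f

theorem fxM (h : Act U s x) {c : U} (f : x c = c) : Fx s x 1 (eM s c) :=
  h.fx (p := s ^ 3) (by
    have a : s ^ 10 = s ^ 3 := by rw [show 10 = 7 + 3 from rfl, pow_add, h.s7, one_mul]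
    have b : s ^ 12 = s ^ 5 := by rw [show 12 = 7 + 5 from rfl, pow_add, h.s7, one_mul]
    simp only [eM, mul_add, add_mul, h.xs, Nat.reduceMul, a, b]; abel)
    (by simp only [eM]; noncomm_ring) f

end Act

section
variable {U U' W : Type u} [AddCommGroup U] [AddCommGroup U'] [AddCommGroup W]
  {s x : AddMonoid.End U} {s' x' : AddMonoid.End U'} {r : AddMonoid.End W} {β : U →+ U' →+ W}

theorem bpow (hr : ∀ a b, β (s a) (s' b) = r (β a b)) (i : ℕ) (a : U) (b : U') :
    β ((s ^ i) a) ((s' ^ i) b) = (r ^ i) (β a b) := by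
  induction i with
  | zero => rfl
  | succ i ih => rw [pow_succ', pow_succ', pow_succ']; exact (hr _ _).trans (congrArg r ih)

theorem brel (hr : ∀ a b, β (s a) (s' b) = r (β a b)) {k : ℕ} (hk : k ≤ 3) {c : U} (hc : Act.Fx s x k c)
    (d : U') (j : ℕ) : (r ^ 3) (β c ((s' ^ j) d)) =
      (r ^ k) (β c ((s' ^ (j + (3 - k))) d)) + β c ((s' ^ (j + 3)) d) := by
  have := hc.cub 0
  rw [zero_add, zero_add] at this
  have e : ∀ m n, m + n = j + 3 → (s' ^ m) ((s' ^ n) d) = (s' ^ (j + 3)) d := fun m n h => by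
    rw [← h, pow_add]; rfl
  rw [← bpow hr, ← bpow hr, this, map_add, e 3 j (by omega), e k _ (by omega)]
  rfl

theorem red (h : Act U s x) (h' : Act U' s' x') (hr : ∀ a b, β (s a) (s' b) = r (β a b))
    {e : AddMonoid.End U} {e' : AddMonoid.End U'} {E : AddMonoid.End W} (he : Commute s e)
    (he' : Commute s' e') (hE : Commute r E)
    (H : ∀ c d, x c = c → x' d = d → ∀ j, E (β (e c) ((s' ^ j) (e' d))) = 0) (a : U) (b : U') :
    E (β (e a) (e' b)) = 0 := by
  refine h.ind (P := fun a => E (β (e a) (e' b)) = 0) (fun a a' p q => by simp [p, q]) (fun i c hc => ?_) a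
  refine h'.ind (P := fun b => E (β (e ((s ^ i) c)) (e' b)) = 0) 
    (fun a a' p q => by rw [map_add, map_add, map_add, p, q, add_zero]) (fun j d hd => ?_) b
  have a1 : e ((s ^ i) c) = (s ^ i) (e c) := (DFunLike.congr_fun (he.pow_left i).eq c).symm
  have a2 : e' ((s' ^ j) d) = (s' ^ i) ((s' ^ (j + 6 * i)) (e' d)) := by
    have : s' ^ i * s' ^ (j + 6 * i) * e' = e' * s' ^ j := by
      rw [← pow_add, show i + (j + 6 * i) = 7 * i + j by ring, pow_add, pow_mul, h'.s7, one_pow, one_mul,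
        (he'.pow_left j).eq]
    exact (DFunLike.congr_fun this d).symm
  rw [a1, a2, bpow hr]
  exact (DFunLike.congr_fun (hE.pow_left i).eq _).symm.trans ((congrArg (r ^ i) (H c d hc hd _)).trans
    (map_zero _))

theorem cP {R : Type*} [Ring R] (s : R) : Commute s (s + s ^ 2 + s ^ 4) := by
  rw [Commute, SemiconjBy]; noncomm_ring

theorem cM {R : Type*} [Ring R] (s : R) : Commute s (s ^ 3 + s ^ 5 + s ^ 6) := by
  rw [Commute, SemiconjBy]; noncomm_ring

theorem bilPM (h : Act U s x) (h' : Act U' s' x') (hN : 1 + r + r ^ 2 + r ^ 3 + r ^ 4 + r ^ 5 + r ^ 6 = 0)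
    (hr : ∀ a b, β (s a) (s' b) = r (β a b)) (h0 : ∀ a b, x a = a → x' b = b → β a b = 0) (a : U) (b : U') :
    β (eP s a) (eM s' b) = 0 := by
  refine red (e := eP s) (e' := eM s') (E := 1) h h' hr (cP s) (cM s') (Commute.one_right r)
    (fun c d hc hd => ?_) a b
  have fc := h.fxP hc
  have fd := h'.fxM hd
  generalize eP s c = c at fc
  generalize eM s' d = d at fd
  set g : ℕ → W := fun j => β c ((s' ^ j) d) with eg
  have g0 : g 0 = 0 := h0 _ _ fc.fix fd.fix
  have gr : ∀ j, g (j + 3) = g (j + 1) + g j := fun j => by simp only [eg, fd.cub, map_add]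
  have rel : ∀ j, (r ^ 3) (g j) = (r ^ 2) (g (j + 1)) + g (j + 3) := brel hr (by norm_num) fc d
  have k : ∀ u : W, u + u = 0 → (r ^ 2) u + u = 0 → (1 : AddMonoid.End W) u = 0 := fun u p q =>
    kill hN p (A := r ^ 2 + 1) q (-r) (r ^ 5 + r ^ 4 + r + 1) 0 (by noncomm_ring)
  have t : ∀ j, g j + g j = 0 := fun j => by simp only [eg, ← map_add, h'.two, map_zero]
  change ∀ j, (1 : AddMonoid.End W) (g j) = 0
  clear_value g
  have g1 : g 1 = 0 := k _ (t 1) (by simpa [gr 0, g0] using (rel 0).symm)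
  exact rec3 (by norm_num) gr g0 g1 (k _ (t 2) (by simpa [gr 1, g1] using (rel 1).symm))

end

theorem jobBIL : JobBIL.{u} := by
  intro U U' W _ _ _ s x s' x' r β h h' hN hr h0
  refine ⟨fun K k1 k2 => eq_top_iff.2 fun a _ => h.ind (P := (· ∈ K)) (fun _ _ => K.add_mem)
    (fun j c hc => ?_) a, fun a b => ⟨bilPM h h' hN hr h0 a b,
      bilPM (β := β.flip) h' h hN (fun a b => hr b a) (fun a b p q => h0 b a q p) b a, ?_, ?_⟩⟩
  · induction j with
    | zero => exact k1 c hc
    | succ j ih => rw [pow_succ']; exact k2 _ ih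
  · refine red (e := eP s) (e' := eP s') (E := eP r) h h' hr (cP s) (cP s') (cP r)
      (fun c d hc hd => ?_) a b
    have fc := h.fxP hc
    have fd := h'.fxP hd
    generalize eP s c = c at fc
    generalize eP s' d = d at fd
    set g : ℕ → W := fun j => β c ((s' ^ j) d) with eg
    have g0 : g 0 = 0 := h0 _ _ fc.fix fd.fix
    have gr : ∀ j, g (j + 3) = g (j + 2) + g j := fun j => by simp only [eg, fd.cub, map_add]
    have rel : ∀ j, (r ^ 3) (g j) = (r ^ 2) (g (j + 1)) + g (j + 3) := brel hr (by norm_num) fc d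
    have t : ∀ j, g j + g j = 0 := fun j => by simp only [eg, ← map_add, h'.two, map_zero]
    change ∀ j, eP r (g j) = 0
    clear_value g
    have g3 : g 3 = g 2 := by rw [gr 0, g0, add_zero]
    have g2 : g 2 = (-r ^ 2) (g 1) := by
      have := rel 0
      rw [g0, map_zero, zero_add, g3] at this
      exact eq_neg_of_add_eq_zero_right this.symm
    have g1 : eP r (g 1) = 0 := kill hN (t 1) (A := r ^ 3 + r ^ 4 + r ^ 2 - 1) (by
        have := rel 1
        rw [gr 1, show g (1 + 1) = g 2 from rfl, show g (1 + 2) = g 3 from rfl, g3, g2] at this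
        have e : (r ^ 4) (g 1) = (r ^ 2) ((r ^ 2) (g 1)) := rfl
        change (r ^ 3) (g 1) + (r ^ 4) (g 1) + (r ^ 2) (g 1) - g 1 = 0
        have n : (-r ^ 2) (g 1) = -(r ^ 2) (g 1) := rfl
        rw [this, e, n, map_neg]; abel)
      r (r ^ 3) (-(r ^ 7 + r ^ 6 + r ^ 5)) (by simp only [eP]; noncomm_ring)
    refine rec3 (by norm_num) gr (by rw [g0, map_zero]) g1 ?_
    rw [g2]
    exact (DFunLike.congr_fun ((cP r).pow_left 2).neg_left.eq _).symm.trans
      ((congrArg (-r ^ 2 : AddMonoid.End W) g1).trans (map_zero _))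
  · refine red (e := eM s) (e' := eM s') (E := eM r) h h' hr (cM s) (cM s') (cM r)
      (fun c d hc hd => ?_) a b
    have fc := h.fxM hc
    have fd := h'.fxM hd
    generalize eM s c = c at fc
    generalize eM s' d = d at fd
    set g : ℕ → W := fun j => β c ((s' ^ j) d) with eg
    have g0 : g 0 = 0 := h0 _ _ fc.fix fd.fix
    have gr : ∀ j, g (j + 3) = g (j + 1) + g j := fun j => by simp only [eg, fd.cub, map_add]
    have rel : ∀ j, (r ^ 3) (g j) = r (g (j + 2)) + g (j + 3) := fun j => by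
      have := brel hr (by norm_num) fc d j
      rwa [pow_one] at this
    have t : ∀ j, g j + g j = 0 := fun j => by simp only [eg, ← map_add, h'.two, map_zero]
    change ∀ j, eM r (g j) = 0
    clear_value g
    have g3 : g 3 = g 1 := by rw [gr 0, g0, add_zero]
    have g1 : g 1 = (-r) (g 2) := by
      have := rel 0
      rw [g0, map_zero, zero_add, zero_add, g3] at this
      exact eq_neg_of_add_eq_zero_right this.symm
    have g2 : eM r (g 2) = 0 := kill hN (t 2) (A := r ^ 4 - r ^ 2 - r + 1) (by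
        have := rel 1
        rw [gr 1, show g (1 + 1) = g 2 from rfl, show g (1 + 2) = g 3 from rfl, g3, g1] at this
        have e : (r ^ 4) (g 2) = (r ^ 3) (r (g 2)) := rfl
        have e' : (r ^ 2) (g 2) = r (r (g 2)) := rfl
        change (r ^ 4) (g 2) - (r ^ 2) (g 2) - r (g 2) + g 2 = 0
        have n : (-r) (g 2) = -r (g 2) := rfl
        simp only [n, map_neg] at this
        rw [e, e', ← neg_neg ((r ^ 3) _), this]; abel)
      (r ^ 3) (r ^ 5 + r ^ 4) (-(r ^ 9 + r ^ 8 + r ^ 4) + r ^ 6) (by simp only [eM]; noncomm_ring)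
    refine rec3 (by norm_num) gr (by rw [g0, map_zero]) ?_ g2
    rw [g1]
    exact (DFunLike.congr_fun (cM r).neg_left.eq _).symm.trans
      ((congrArg (-r : AddMonoid.End W) g2).trans (map_zero _))

end H74.O8
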