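import Cfsg.Agent.H74.O8Spec
import Cfsg.Agent.H10.WSpec
import Cfsg.Prelude.Def_ClassificationK
import Cfsg.Prelude.Def_Exceptional
import Cfsg.Prelude.Def_Sz
import Cfsg.Prelude.Def_Spor_Mathieu
import Cfsg.Prelude.Def_Spor_J2
import Cfsg.Prelude.Def_Spor_J3
import Cfsg.Prelude.Def_Spor_Ly
import Cfsg.Prelude.Def_ChevG2
import Cfsg.Prelude.Def_LieTwisted

/-! Spec of the tower O8, the lists: see blueprints/O8.md. -/

set_option autoImplicit false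

namespace H74.O8

open Cfsg Subgroup H98 H74.OC

universe u

/-! ### The lists -/

def JobFL2 : Prop := ∀ (G : Type u) [Group G] [Finite G] [IsSimpleGroup G], ¬ IsMulCommutative G →
  Sp 8 G → ∀ (F : Type) [Field F] [Fintype F], Nonempty (G ≃* PSL 2 F) → K8 G

def JobFL3 : Prop := ∀ (G : Type u) [Group G] [Finite G], Sp 8 G → ∀ n : ℕ, 3 ≤ n →
  ∀ (F : Type) [Field F] [Fintype F], Nonempty (G ≃* PSL n F) → K8 G

def JobFU : Prop := ∀ (G : Type u) [Group G] [Finite G], Sp 8 G → ∀ n q : ℕ, 3 ≤ q →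
  (n = 3 ∨ ((n = 4 ∨ n = 5) ∧ Odd q)) → ∀ (F : Type) [Field F] [Fintype F], Fintype.card F = q ^ 2 →
  Nonempty (G ≃* PSU n F q) → False

def JobFS : Prop := ∀ (G : Type u) [Group G] [Finite G], Sp 8 G →
  ∀ (F : Type) [Field F] [Fintype F], 3 ≤ Fintype.card F → Nonempty (G ≃* PSp 2 F) → False

/-- The other groups in the lists. -/
def Oth (G : Type u) [Group G] : Prop :=
  IsSuzuki G ∨ Lie.IsoSuzuki G ∨ IsRee G ∨ IsTits G ∨ IsJ1 G ∨ IsM11 G ∨ IsM22 G ∨ IsM23 G ∨ IsMcL G ∨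
    Spor.IsoM12 G ∨ Spor.IsoM22 G ∨ Spor.IsoM23 G ∨ Spor.IsoM24 G ∨ Spor.IsoJ2 G ∨ Spor.IsoJ3 G ∨
    Spor.IsoLy G ∨ H10.W.IsJR G ∨
    (∃ n : ℕ, 8 ≤ n ∧ Nonempty (G ≃* alternatingGroup (Fin n))) ∨
    (∃ (F : Type) (_ : Field F) (_ : Fintype F), Odd (Fintype.card F) ∧
      Nonempty (G ≃* Lie.chevG2.group F)) ∨
    (∃ (K : Type) (_ : Field K) (_ : Fintype K) (r : ℕ), Odd r ∧ IsPrimePow r ∧
      Fintype.card K = r ^ 3 ∧ Nonempty (G ≃* Lie.twistedD4 K r))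

def JobFO : Prop := ∀ (G : Type u) [Group G] [Finite G], Sp 8 G → Oth G → False

/-- A counterexample after the first hub theorems. -/
structure Big0 (G : Type u) [Group G] : Prop where
  ch : IsCharacteristicTwoType G
  dvd : 256 ∣ Nat.card G
  sec : ¬ SectionalPRankLE 2 4 G
  se : ∀ H : Subgroup G, ¬ IsStronglyEmbedded H
  ng : ¬ IsNGroup G

def JobHUB1 : Prop := JobFL2.{u} → JobFL3.{u} → JobFU.{u} → JobFS.{u} → JobFO.{u} →
  ∀ (G : Type u) [Group G] [Finite G] [IsSimpleGroup G], ¬ IsMulCommutative G → Sp 8 G → ¬ K8 G →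
    Big0 G

def JobHUB2 : Prop := JobFL2.{u} → JobFL3.{u} → JobFU.{u} → JobFS.{u} → JobFO.{u} →
  ∀ (G : Type u) [Group G] [Finite G] [IsSimpleGroup G], ¬ IsMulCommutative G → Sp 8 G → ¬ K8 G →
    Big0 G → Big G

end H74.O8
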