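import Cfsg.Agent.H74.OCSpec
import Cfsg.Agent.H98.Baumann
import Cfsg.Agent.H98.CharP

/-! Spec of the tower O8 (element orders at most 8): see blueprints/O8.md. -/

set_option autoImplicit false

namespace H74.O8

open Cfsg Subgroup H98 H74.OC

universe u

abbrev A7 : Type := alternatingGroup (Fin 7)
abbrev S5 : Type := Equiv.Perm (Fin 5)
abbrev S6 : Type := Equiv.Perm (Fin 6)
abbrev L32 : Type := Matrix.SpecialLinearGroup (Fin 3) (ZMod 2)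
abbrev PSL (n : ℕ) (F : Type) [Field F] : Type := Matrix.ProjectiveSpecialLinearGroup (Fin n) F

def IsL34 (L : Type u) [Group L] : Prop :=
  ∃ (F : Type) (_ : Field F) (_ : Fintype F), Fintype.card F = 4 ∧ Nonempty (L ≃* PSL 3 F)

/-- The simple groups with element orders at most 8. -/
def K8 (L : Type u) [Group L] : Prop :=
  Nonempty (L ≃* A5) ∨ Nonempty (L ≃* A6) ∨ Nonempty (L ≃* A7) ∨ Nonempty (L ≃* L32) ∨ IsL34 L

/-- A counterexample after all hub theorems. -/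
structure Big (G : Type u) [Group G] : Prop where
  sp : Sp 8 G
  ch : ∀ B : Subgroup G, IsPGroup 2 B → B ≠ ⊥ → H98.CharP 2 (normalizer (B : Set G))
  dvd : 256 ∣ Nat.card G
  har : ∀ S E : Subgroup G, IsSyl 2 S ⊤ → E ≤ S → IsElementaryAbelian 2 E → Nat.card E = 8 →
    ¬ S ⊓ centralizer (E : Set G) ≤ E
  bau : ∀ S : Subgroup G, IsSyl 2 S ⊤ → ∀ z ∈ oz 2 S, z ≠ 1 →
    ¬ centralizer ({z} : Set G) ≤ normalizer (S : Set G)
  cgt : ∀ S M : Subgroup G, IsSyl 2 S ⊤ → M ≠ ⊤ → ∃ B : Subgroup G, IsPGroup 2 B ∧ B ≠ ⊥ ∧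
    S ≤ normalizer (B : Set G) ∧ ¬ normalizer (B : Set G) ≤ M
  ti : ∀ B : Subgroup G, IsElementaryAbelian 2 B → B ≠ ⊥ → (∀ g : G, cj g B = B ∨ cj g B ⊓ B = ⊥) →
    ∃ g : G, cj g B ≤ normalizer (B : Set G) ∧ cj g B ≠ B
  sc : ∀ S A : Subgroup G, IsSyl 2 S ⊤ → IsElementaryAbelian 2 A → A ≠ ⊥ → ¬ IsStronglyClosed A S
  loc : ∀ B : Subgroup G, IsPGroup 2 B → B ≠ ⊥ → normalizer (B : Set G) ≠ ⊤

/-! ### Extensions of a 2-group -/

/-- `H` has element orders at most 8 and `f` is onto with kernel a 2-group. -/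
structure Cov {H : Type u} [Group H] {X : Type*} [Group X] (f : H →* X) : Prop where
  sp : Sp 8 H
  sur : Function.Surjective f
  two : IsPGroup 2 f.ker

def JobX5 : Prop := ∀ (H : Type u) [Group H] [Finite H] (f : H →* S5), Cov f →
  ∀ y : H, orderOf y = 3 → f.ker ⊓ centralizer ({y} : Set H) = ⊥

def JobX6 : Prop := ∀ (H : Type u) [Group H] [Finite H] (f : H →* A6), Cov f →
  ∀ A : Subgroup H, Nat.card A = 9 → f.ker ⊓ centralizer (A : Set H) = ⊥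

def JobA6L : Prop := ∀ (F : Type) [Field F] [Fintype F], Fintype.card F = 4 →
  ∃ i : A6 →* PSL 3 F, Function.Injective i

def JobF21 : Prop := ∀ (H : Type u) [Group H] [Finite H] (V : Subgroup H) (σ x : H), Sp 8 H →
  IsElementaryAbelian 2 V → σ ∈ normalizer (V : Set H) → x ∈ normalizer (V : Set H) →
  orderOf σ = 7 → orderOf x = 3 → x * σ * x⁻¹ = σ ^ 2 →
  Nat.card (V ⊓ centralizer ({x} : Set H) : Subgroup H) ^ 3 = Nat.card V

def JobXA7 : Prop := JobX5.{u} → JobF21.{u} → ∀ (H : Type u) [Group H] [Finite H] (f : H →* A7),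
  Cov f → f.ker = ⊥

def JobXS6 : Prop := JobX5.{u} → ∀ (H : Type u) [Group H] [Finite H] (f : H →* S6), Cov f → f.ker = ⊥

def JobXL34 : Prop := JobX6.{u} → JobA6L → JobF21.{u} → ∀ (H : Type u) [Group H] [Finite H]
  (F : Type) [Field F] [Fintype F], Fintype.card F = 4 → ∀ f : H →* PSL 3 F, Cov f → f.ker = ⊥

def JobXM10 : Prop := ∀ (H K : Type u) [Group H] [Finite H] [Group K] (f : H →* K) (N : Subgroup K),
  Cov f → f.ker ≠ ⊥ → N.Normal → Nonempty (N ≃* A6) → centralizer (N : Set K) = ⊥ →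
  (∀ w : K, orderOf w ≠ 6) → N = ⊤

def JobXF42 : Prop := ∀ (H K : Type u) [Group H] [Finite H] [Group K] (f : H →* K) (N : Subgroup K),
  Cov f → f.ker ≠ ⊥ → N.Normal → Nonempty (N ≃* L32) → N = ⊤

/-! ### Local data -/

section
variable {G : Type u} [Group G]

/-- `M` is a maximal 2-local subgroup with 2-core `Q`. -/
structure Mx (M Q : Subgroup G) : Prop where
  two : IsPGroup 2 Q
  ne : Q ≠ ⊥
  eq : normalizer (Q : Set G) = M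
  core : ∀ B : Subgroup G, IsPGroup 2 B → B ≤ M → M ≤ normalizer (B : Set G) → B ≤ Q
  max : ∀ B : Subgroup G, IsPGroup 2 B → B ≠ ⊥ → M ≤ normalizer (B : Set G) →
    normalizer (B : Set G) = M
  cen : centralizer (Q : Set G) ≤ Q

/-- `M / Q` is isomorphic to `X`. -/
def Ext (X : Type) [Group X] (M Q : Subgroup G) : Prop :=
  ∃ f : M →* X, Function.Surjective f ∧ f.ker = Q.subgroupOf M

/-- `H / W` is the symmetric group of degree 3 with Sylow 2-subgroup `S / W`. -/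
structure S3T (S H W : Subgroup G) : Prop where
  two : IsPGroup 2 S
  le1 : W ≤ S
  le2 : S ≤ H
  nor : H ≤ normalizer (W : Set G)
  c1 : Nat.card S = 2 * Nat.card W
  c2 : Nat.card H = 3 * Nat.card S
  nn : ¬ H ≤ normalizer (S : Set G)

/-- A `{2,3}`-subgroup. -/
def T23 (X : Subgroup G) : Prop := ∀ p : ℕ, p.Prime → p ∣ Nat.card X → p = 2 ∨ p = 3

/-- `P H ⊆ H P`. -/
def Prm (H P : Subgroup G) : Prop := ∀ h ∈ H, ∀ p ∈ P, ∃ h' ∈ H, ∃ p' ∈ P, p * h = h' * p'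

/-- An element of `J` with at most two conjugates under `J` is central. -/
def Rk1 (J : Subgroup G) : Prop := ∀ u ∈ J, ∀ c : G, c * c = 1 →
  (∀ j ∈ J, j * u * j⁻¹ = u ∨ j * u * j⁻¹ = u * c) → u ∈ centralizer (J : Set G)

def NoU (S : Subgroup G) : Prop := ∀ A ∈ H12.maxEA 2 S, ∀ u ∈ A, ∀ c : G, c * c = 1 →
  (∀ j ∈ jt 2 S, j * u * j⁻¹ = u ∨ j * u * j⁻¹ = u * c) → u ∈ centralizer (jt 2 S : Set G)

/-- Facts on `M / Q` = `A5`, `A6` (`k = 2`) or `L3(2)` (`k = 3`). -/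
structure Typ (M Q : Subgroup G) (k : ℕ) : Prop where
  gen : ∀ U : Subgroup G, IsPGroup 2 U → M ≤ normalizer (U : Set G) → ∀ t ∈ M, t ∉ Q → t * t ∈ Q →
    Nat.card U ≤ (centralizer ({t} : Set G)).relIndex U ^ k
  rk : ∀ J : Subgroup G, IsPGroup 2 J → M ≤ normalizer (J : Set G) → Rk1 J
  el : ∀ B : Subgroup G, B ≤ M → (∀ b ∈ B, b * b ∈ Q) → Nat.card B ≤ 4 * Nat.card (B ⊓ Q : Subgroup G)
  simp : ∀ N : Subgroup G, N ≤ M → M ≤ normalizer (N : Set G) → N ≤ Q ∨ N ⊔ Q = M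
  sig : ∃ σ ∈ M, orderOf σ = 5 ∨ orderOf σ = 7

/-- The two parabolic subgroups over `T` when `M / Q` is `A6` or `L3(2)`. -/
structure Par (M Q T P₁ P₂ D₁ D₂ : Subgroup G) : Prop where
  syl : IsSyl 2 T M
  s1 : S3T T P₁ D₁
  s2 : S3T T P₂ D₂
  q1 : Q ≤ D₁
  q2 : Q ≤ D₂
  c1 : Nat.card D₁ = 4 * Nat.card Q
  c2 : Nat.card D₂ = 4 * Nat.card Q
  sup : P₁ ⊔ P₂ = M
  ne : D₁ ≠ D₂
  sq1 : ∀ d ∈ D₁, d * d ∈ Q
  sq2 : ∀ d ∈ D₂, d * d ∈ Q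
  inv : ∀ t ∈ T, t * t ∈ Q → t ∈ D₁ ∨ t ∈ D₂
  tr1 : ∀ d ∈ D₁, d ∉ Q → ∀ e ∈ D₁, e ∉ Q → ∃ g ∈ P₁, g * d * g⁻¹ * e⁻¹ ∈ Q
  tr2 : ∀ d ∈ D₂, d ∉ Q → ∀ e ∈ D₂, e ∉ Q → ∃ g ∈ P₂, g * d * g⁻¹ * e⁻¹ ∈ Q
  nd1 : M ⊓ normalizer (D₁ : Set G) ≤ P₁
  nd2 : M ⊓ normalizer (D₂ : Set G) ≤ P₂
  self : M ⊓ normalizer (T : Set G) ≤ T

theorem Par.symm {M Q T P₁ P₂ D₁ D₂ : Subgroup G} (h : Par M Q T P₁ P₂ D₁ D₂) :
    Par M Q T P₂ P₁ D₂ D₁ :=
  ⟨h.syl, h.s2, h.s1, h.q2, h.q1, h.c2, h.c1, (sup_comm _ _).trans h.sup, h.ne.symm, h.sq2, h.sq1,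
    fun t a b => (h.inv t a b).symm, h.tr2, h.tr1, h.nd2, h.nd1, h.self⟩

def AllPar (M Q : Subgroup G) : Prop :=
  ∀ T : Subgroup G, IsSyl 2 T M → ∃ P₁ P₂ D₁ D₂ : Subgroup G, Par M Q T P₁ P₂ D₁ D₂

/-- The Borel subgroup `S⟨y⟩` when `M / Q` is `A5`. -/
structure A5D (M Q S : Subgroup G) (y : G) : Prop where
  syl : IsSyl 2 S M
  mem : y ∈ M
  ord : orderOf y = 3
  nor : y ∈ normalizer (S : Set G)
  c1 : Nat.card S = 4 * Nat.card Q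
  c2 : Nat.card M = 60 * Nat.card Q
  fpf : ∀ s ∈ S, y * s * y⁻¹ * s⁻¹ ∈ Q → s ∈ Q
  sq : ∀ s ∈ S, s * s ∈ Q
  ovr : ∀ K : Subgroup G, S ≤ K → K ≤ M → K ≤ normalizer (S : Set G) ∨ K = M
  sig : ∃ σ ∈ M, orderOf σ = 5

/-- A Frobenius group of order 21 in `M`. -/
def F21 (M : Subgroup G) : Prop :=
  ∃ σ ∈ M, ∃ x ∈ M, orderOf σ = 7 ∧ orderOf x = 3 ∧ x * σ * x⁻¹ = σ ^ 2

/-- Failure of factorisation on `oz 2 Q`. -/
structure FFD (Q T A : Subgroup G) : Prop where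
  c1 : Nat.card A = 4 * Nat.card (A ⊓ Q : Subgroup G)
  c2 : Nat.card (oz 2 Q) = 4 * Nat.card (oz 2 Q ⊓ centralizer (A : Set G) : Subgroup G)
  cen : ∀ t ∈ A, t ∉ Q → oz 2 Q ⊓ centralizer ({t} : Set G) ≤ centralizer (A : Set G)
  mem : (A ⊓ Q) ⊔ oz 2 Q ∈ H12.maxEA 2 T
  zj : oz 2 (jt 2 Q) = oz 2 Q

/-- An elementary abelian `Q` whose normaliser acts with free involutions. -/
structure Loc8 (Q : Subgroup G) (m : ℕ) : Prop where
  el : IsElementaryAbelian 2 Q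
  card : Nat.card Q = m ^ 2
  two : ∀ B : Subgroup G, B ≤ normalizer (Q : Set G) → (∀ b ∈ B, b * b ∈ Q) →
    Nat.card B ≤ 4 * Nat.card (B ⊓ Q : Subgroup G)
  cen : ∀ t ∈ normalizer (Q : Set G), t ∉ Q → t * t ∈ Q →
    Nat.card (Q ⊓ centralizer ({t} : Set G) : Subgroup G) = m

/-- The result of job FFA. -/
structure FFA (T P₁ P₂ D₂ V₁ : Subgroup G) : Prop where
  syl : IsSyl 2 T ⊤
  cz : centralizer (oz 2 T : Set G) = P₁
  zj : oz 2 (jt 2 T) = V₁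
  cv : centralizer (V₁ : Set G) = D₂
  self : normalizer (T : Set G) ≤ T
  nv : P₂ ≤ normalizer (V₁ : Set G)
  fpf : ∀ x ∈ P₂, orderOf x = 3 → V₁ ⊓ centralizer ({x} : Set G) = ⊥

end

/-! ### General lemmas -/

def JobRK5 : Prop := ∀ (G : Type u) [Group G] [Finite G] (J : Subgroup G) (σ : G), Sp 8 G →
  IsPGroup 2 J → σ ∈ normalizer (J : Set G) → orderOf σ = 5 → Rk1 J

def JobRK7 : Prop := ∀ (G : Type u) [Group G] [Finite G] (J : Subgroup G), Sp 8 G →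
  IsPGroup 2 J → F21 (normalizer (J : Set G)) → Rk1 J

/-- An action of the Frobenius group of order 21 on an elementary abelian 2-group, written
additively, with the element of order 7 fixed point free. -/
structure Act (U : Type u) [AddCommGroup U] (s x : AddMonoid.End U) : Prop where
  two : ∀ v : U, v + v = 0
  x3 : x ^ 3 = 1
  rel : x * s = s ^ 2 * x
  nrm : 1 + s + s ^ 2 + s ^ 3 + s ^ 4 + s ^ 5 + s ^ 6 = 0

/-- The two idempotents. -/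
def eP {U : Type u} [AddCommGroup U] (s : AddMonoid.End U) : AddMonoid.End U := s + s ^ 2 + s ^ 4
def eM {U : Type u} [AddCommGroup U] (s : AddMonoid.End U) : AddMonoid.End U := s ^ 3 + s ^ 5 + s ^ 6

def JobBIL : Prop := ∀ (U U' W : Type u) [AddCommGroup U] [AddCommGroup U'] [AddCommGroup W]
  (s x : AddMonoid.End U) (s' x' : AddMonoid.End U') (r : AddMonoid.End W) (β : U →+ U' →+ W),
  Act U s x → Act U' s' x' → 1 + r + r ^ 2 + r ^ 3 + r ^ 4 + r ^ 5 + r ^ 6 = 0 →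
  (∀ a b, β (s a) (s' b) = r (β a b)) → (∀ a b, x a = a → x' b = b → β a b = 0) →
  (∀ K : AddSubgroup U, (∀ a, x a = a → a ∈ K) → (∀ a ∈ K, s a ∈ K) → K = ⊤) ∧
  ∀ a b, β (eP s a) (eM s' b) = 0 ∧ β (eM s a) (eP s' b) = 0 ∧
    eP r (β (eP s a) (eP s' b)) = 0 ∧ eM r (β (eM s a) (eM s' b)) = 0

def JobCL2 : Prop := JobBIL.{u} → ∀ (G : Type u) [Group G] [Finite G] (J : Subgroup G), Sp 8 G →
  IsPGroup 2 J → F21 (normalizer (J : Set G)) → ⁅J, J⁆ ≤ oz 2 J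

def JobFFK : Prop := ∀ (G : Type u) [Group G] [Finite G] (S K : Subgroup G), IsSyl 2 S K →
  H98.CharP 2 K → Group.IsSolvable K → NoU S →
  K ≤ (K ⊓ centralizer (oz 2 S : Set G)) ⊔ (K ⊓ normalizer (jt 2 S : Set G))

def JobA9 : Prop := ∀ (G : Type u) [Group G] [Finite G] (W A : Subgroup G), Sp 8 G → IsPGroup 2 W →
  Nat.card A = 9 → A ≤ normalizer (W : Set G) → A ≤ centralizer (oz 2 W : Set G) →
  A ≤ centralizer (W : Set G)

def JobGAM : Prop := ∀ (G : Type u) [Group G] [Finite G] (S H : Subgroup G), Sp 8 G → IsSyl 2 S H →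
  H98.CharP 2 H → H ≤ centralizer (oz 2 S : Set G) →
  H ≤ normalizer (S : Set G) ∨ S3T S H (pCoreOf 2 H)

def JobE3 : Prop := ∀ (G : Type u) [Group G] [Finite G] (X R : Subgroup G) (w f t z : G), Sp 8 G →
  H98.CharP 2 X → R = pCoreOf 2 X → w ∈ X → f ∈ X → t ∈ X → z = w * f * w⁻¹ * f⁻¹ → w ^ 3 ∈ R →
  z ^ 3 ∈ R → t * t ∈ R → t * w * t⁻¹ * w⁻¹ ∈ R → z * w * z⁻¹ * w⁻¹ ∈ R → z * f * z⁻¹ * f⁻¹ ∈ R →
  t * z * t⁻¹ * z ∈ R → z ∈ R

/-- A `{2,3}`-group of characteristic 2 is 3-closed modulo its 2-core. -/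
def L232 : Prop := ∀ (G : Type u) [Group G] [Finite G] (X : Subgroup G), Sp 8 G → H98.CharP 2 X →
  T23 X → ∃ F : Subgroup G, pCoreOf 2 X ≤ F ∧ F ≤ X ∧ X ≤ normalizer (F : Set G) ∧
    (∀ x ∈ F, x ^ 3 ∈ pCoreOf 2 X) ∧ ∀ x ∈ X, orderOf x = 3 → x ∈ F

def JobL232 : Prop := JobE3.{u} → L232.{u}

def PERM : Prop := ∀ (G : Type u) [Group G] [Finite G]
  (S H W P D X : Subgroup G), Sp 8 G → S3T S H W → S3T S P D → H ≤ centralizer (oz 2 S : Set G) →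
  H ≤ X → P ≤ X → IsSyl 2 S X → H98.CharP 2 X → T23 X → Prm H P ∧ Prm P H

def JobPERM : Prop := JobA9.{u} → L232.{u} → PERM.{u}

def JobSOL : Prop := ∀ (G : Type u) [Group G] [Finite G] (S H W X : Subgroup G), Sp 8 G →
  S3T S H W → H ≤ X → H98.CharP 2 X → Group.IsSolvable X → T23 X

def JobHM : Prop := ∀ (G : Type u) [Group G] [Finite G] (M Q T P₁ P₂ H W : Subgroup G) (k : ℕ),
  Sp 8 G → Mx M Q → Typ M Q k → P₁ ⊔ P₂ = M → Q ≤ T → T ≤ M → S3T T H W → Prm H P₁ → Prm H P₂ → H ≤ M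

def JobGOLD : Prop := ∀ (G : Type u) [Group G] [Finite G] (S H W P D : Subgroup G),
  256 ≤ Nat.card S → S3T S H W → S3T S P D → H ≠ P →
  ∃ B : Subgroup G, B ≤ S ∧ B ≠ ⊥ ∧ H ≤ normalizer (B : Set G) ∧ P ≤ normalizer (B : Set G)

def JobFF : Prop := ∀ (G : Type u) [Group G] [Finite G] (M Q T : Subgroup G) (k : ℕ), Sp 8 G →
  Mx M Q → Typ M Q k → 4 ^ k ≤ Nat.card (oz 2 Q) → Q ≤ T → T ≤ M →
  NoU T ∧ ∀ A ∈ H12.maxEA 2 T, ¬ A ≤ Q → FFD Q T A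

def JobPL : Prop := ∀ (G : Type u) [Group G] [Finite G] (U U' Q Q' : Subgroup G), Sp 8 G →
  IsElementaryAbelian 2 U → IsElementaryAbelian 2 U' → Nat.card U = 8 → Nat.card U' = 8 →
  U ⊓ U' = ⊥ → U ≤ centralizer (U' : Set G) → Q ≤ centralizer (U : Set G) →
  Q' ≤ centralizer (U' : Set G) → ⁅U', Q⁆ ≤ U → ⁅U, Q'⁆ ≤ U' →
  (∀ q ∈ Q, ∀ v ∈ U', v ≠ 1 → q * v = v * q → q ∈ centralizer (U' : Set G)) →
  (∀ q ∈ Q', ∀ v ∈ U, v ≠ 1 → q * v = v * q → q ∈ centralizer (U : Set G)) →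
  ¬ Q' ≤ centralizer (U : Set G) → (centralizer (U' : Set G)).relIndex Q ≤ 2

/-! ### The types of maximal 2-local subgroups -/

def JobT5 : Prop := JobRK5.{u} → ∀ (G : Type u) [Group G] [Finite G] (M Q : Subgroup G), Sp 8 G →
  Mx M Q → Ext A5 M Q → Typ M Q 2 ∧ 4 ^ 2 ≤ Nat.card (oz 2 Q) ∧ ∀ S, IsSyl 2 S M → ∃ y, A5D M Q S y

def JobT6 : Prop := JobRK5.{u} → ∀ (G : Type u) [Group G] [Finite G] (M Q : Subgroup G), Sp 8 G →
  Mx M Q → Ext A6 M Q → Typ M Q 2 ∧ 4 ^ 2 ≤ Nat.card (oz 2 Q) ∧ AllPar M Q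

def JobT7 : Prop := JobRK7.{u} → ∀ (G : Type u) [Group G] [Finite G] (M Q : Subgroup G), Sp 8 G →
  Mx M Q → Ext L32 M Q → Typ M Q 3 ∧ (Nat.card (oz 2 Q) = 8 ∨ 4 ^ 3 ≤ Nat.card (oz 2 Q)) ∧
    AllPar M Q ∧ F21 M ∧ Nat.card M = 168 * Nat.card Q

def JobA5a : Prop := ∀ (G : Type u) [Group G] [Finite G] (M Q T : Subgroup G), Sp 8 G → Mx M Q →
  Ext A5 M Q → IsSyl 2 T M → ¬ IsSyl 2 T ⊤ → IsElementaryAbelian 2 Q

def JobA5b : Prop := ∀ (G : Type u) [Group G] [Finite G] (M Q S W : Subgroup G) (y : G), Sp 8 G →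
  Mx M Q → Typ M Q 2 → A5D M Q S y → S3T S (centralizer (oz 2 S : Set G)) W →
  ¬ oz 2 Q ≤ W ∧ ∃ v ∈ centralizer (oz 2 S : Set G), orderOf v = 3 ∧ y * v = v * y

def JobVW : Prop := ∀ (G : Type u) [Group G] [Finite G] (M Q S X W : Subgroup G) (y v : G), Sp 8 G →
  Mx M Q → Typ M Q 2 → A5D M Q S y → S3T S X W → centralizer (W : Set G) ≤ W →
  y ∈ normalizer (W : Set G) → v ∈ X → orderOf v = 3 → y * v = v * y → ¬ oz 2 Q ≤ W →
  IsElementaryAbelian 2 Q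

def JobA5c : Prop := JobFFK.{u} → JobFF.{u} → ∀ (G : Type u) [Group G] [Finite G]
  (M Q S : Subgroup G) (y : G), Big G → Mx M Q → Typ M Q 2 → 4 ^ 2 ≤ Nat.card (oz 2 Q) →
  A5D M Q S y → IsSyl 2 S ⊤ → centralizer (oz 2 S : Set G) ≤ normalizer (S : Set G) → False

def JobCORE8 : Prop := ∀ (G : Type u) [Group G] [Finite G] (Q : Subgroup G) (m : ℕ), Big G →
  Loc8 Q m → 16 ≤ m → False

def JobEL5 : Prop := JobCORE8.{u} → ∀ (G : Type u) [Group G] [Finite G] (M Q : Subgroup G), Big G →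
  Mx M Q → Ext A5 M Q → IsElementaryAbelian 2 Q → False

def JobSM8 : Prop := ∀ (G : Type u) [Group G] [Finite G] (M Q : Subgroup G), Big G → Mx M Q →
  Ext S5 M Q → Loc8 Q 4 → (∀ y ∈ M, orderOf y = 3 → Q ⊓ centralizer ({y} : Set G) = ⊥) → False

def JobEL8 : Prop := JobX5.{u} → JobCORE8.{u} → JobSM8.{u} → ∀ (G : Type u) [Group G] [Finite G]
  (M Q : Subgroup G), Big G → Mx M Q → Ext S5 M Q → False

def JobFFA : Prop := JobGAM.{u} → ∀ (G : Type u) [Group G] [Finite G]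
  (M Q T P₁ P₂ D₁ D₂ A : Subgroup G) (k : ℕ), Big G → Mx M Q → Typ M Q k → Par M Q T P₁ P₂ D₁ D₂ →
  (∀ B ∈ H12.maxEA 2 T, ¬ B ≤ Q → FFD Q T B) → A ∈ H12.maxEA 2 T → ¬ A ≤ Q → A ≤ D₂ →
  FFA T P₁ P₂ D₂ (oz 2 Q ⊓ centralizer (D₂ : Set G))

def JobFFB : Prop := PERM.{u} → JobHM.{u} →
  ∀ (G : Type u) [Group G] [Finite G] (M Q T P₁ P₂ D₁ D₂ V₁ : Subgroup G) (k : ℕ), Big G → Mx M Q →
  Typ M Q k → Par M Q T P₁ P₂ D₁ D₂ → FFA T P₁ P₂ D₂ V₁ → normalizer (V₁ : Set G) ≤ M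

def JobN3a : Prop := JobGAM.{u} → ∀ (G : Type u) [Group G] [Finite G] (M Q : Subgroup G), Big G →
  Mx M Q → Typ M Q 3 → AllPar M Q → F21 M → Nat.card M = 168 * Nat.card Q → Nat.card (oz 2 Q) = 8 →
  ∀ z ∈ oz 2 Q, z ≠ 1 → centralizer ({z} : Set G) ≤ M

def JobN3b : Prop := JobBIL.{u} → JobCL2.{u} → JobPL.{u} →
  ∀ (G : Type u) [Group G] [Finite G] (M Q : Subgroup G),
  Big G → Mx M Q → Typ M Q 3 → F21 M → Nat.card (oz 2 Q) = 8 →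
  (∀ z ∈ oz 2 Q, z ≠ 1 → centralizer ({z} : Set G) ≤ M) → False

/-! ### The row -/

def JobFIN : Prop := ∀ (G : Type u) [Group G] [Finite G] (N : Subgroup G), Sp 8 G →
  (∃ a b c : G, orderOf a = 5 ∧ orderOf b = 7 ∧ orderOf c = 8) → N.Normal → K8 N →
  centralizer (N : Set G) = ⊥ → N.index = 2 ∧ IsL34 N

section
variable {G : Type u} [Group G]

theorem Mx.le {M Q : Subgroup G} (h : Mx M Q) : Q ≤ M := h.eq ▸ le_normalizer

theorem Mx.nor {M Q : Subgroup G} (h : Mx M Q) : M ≤ normalizer (Q : Set G) := h.eq.ge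

theorem Mx.core_eq {M Q : Subgroup G} (h : Mx M Q) : pCoreOf 2 M = Q :=
  le_antisymm (h.core _ (isPGroup_pCoreOf M) (pCoreOf_le M) (self_le_normalizer_pCoreOf M))
    (le_pCoreOf h.two h.le h.nor)

theorem Mx.charP {M Q : Subgroup G} (h : Mx M Q) : H98.CharP 2 M := by
  rw [H98.CharP, h.core_eq]; exact inf_le_right.trans h.cen

theorem Mx.le_syl {M Q T : Subgroup G} (h : Mx M Q) (hT : IsSyl 2 T M) : Q ≤ T :=
  hT.le_of_le_normalizer h.two h.le (hT.le.trans h.nor)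

end

end H74.O8
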